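import Cfsg.Agent.H79.RIM.OOdd

/-!
# S4816: `Ω₇(3)`, `p = 5, 7` (helper79)
-/

set_option autoImplicit false

universe u

namespace Cfsg.Agent.H79.RIM

open Cfsg Cfsg.Agent.H665.RIM

/-- **`NB p 2 Ω₇(3)`, `p = 5, 7`** -/
theorem nb2_o73 {F : Type} [Field F] [Fintype F] {p : ℕ} (hF : Fintype.card F = 3) (hp : p = 5 ∨ p = 7)
    {S : Type u} [Group S] (e : S ≃* POmega F (quadFormOdd 3 F)) : NB p 2 S := by
  have hpp : p.Prime := by rcases hp with rfl | rfl <;> norm_num
  refine H325.RIM.NB.congr e (nb2_oodd le_rfl (by rw [hF]; decide) hpp ?_ ?_ fun _ => Or.inl ?_)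
  · rw [hF]
    rcases hp with rfl | rfl <;> norm_num
  · have h1 := S0292.result (F := F) hF (by decide) 3 le_rfl
    have h2 : p ∣ 2 * Nat.card (POmega F (quadFormOdd 3 F)) := by
      rw [h1]
      rcases hp with rfl | rfl <;> decide +kernel
    rcases hpp.dvd_mul.1 h2 with h3 | h3
    · have := Nat.le_of_dvd (by norm_num) h3
      omega
    · exact h3
  · rw [hF]
    rcases hp with rfl | rfl <;> norm_num

end Cfsg.Agent.H79.RIM
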